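import Cfsg.Agent.H68.MeetBase
import Cfsg.Agent.H185.MeetRgd
import Cfsg.Agent.H185.MeetChev
import Cfsg.Agent.H185.MeetTw

/-!
# helper232: exceptional groups in defining characteristic, inner version

`MeetIn p` for the Chevalley groups `G₂, F₄, E₆, E₇, E₈`, for `²E₆`, `³D₄` in characteristic `p` (any prime): two
opposite unipotent radicals of Borel subgroups meet trivially (S5760, `p = 2`).
-/

set_option autoImplicit false
set_option linter.unusedSectionVars false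
set_option maxHeartbeats 400000

namespace Cfsg.Agent.H232.MeetTwoExc

open Cfsg Cfsg.Lie
open Cfsg.Agent.H68.MeetB

/-! ### Chevalley groups -/

section chev

open Cfsg.Agent.ChevalleyStructure Cfsg.Agent.ChevalleyStructure.Elts
  Cfsg.Agent.ChevalleyStructure.BNChev Cfsg.Agent.Schreier.ChevLocal
  Cfsg.Agent.S1042 Cfsg.Agent.H70.AutFix Cfsg.Agent.H70.ChevTab Cfsg.Agent.H70.ChevFix

universe u

variable {D : ChevalleyDatum} (hD : InList D) {F : Type u} [Field F]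

include hD in
/-- **Chevalley groups in characteristic `p`.** -/
theorem meetIn_chev [Finite F] {p : ℕ} [Fact p.Prime] [CharP F p] : MeetIn p ↥(D.group F) := by
  have := Fintype.ofFinite F
  have hfinG : Finite ↥(D.group F) := inferInstance
  obtain ⟨n, a, L⟩ := exists_longest hD F
  set nE : ↥(D.group F) := ⟨n, monomial_le_group hD F L.mem⟩ with hnE
  obtain ⟨S, hS⟩ := Cfsg.Agent.S2326.result (F := F) p D hD
  have hUp : IsPGroup p ↥(UU D F) := by
    have h1 := S.isPGroup'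
    rw [hS] at h1
    exact h1
  have hUi : ¬ p ∣ (UU D F).index := by
    have h1 := S.not_dvd_index
    rw [hS] at h1
    exact h1
  have hnV : ∀ u ∈ UU D F, ((nE * u * nE⁻¹ : ↥(D.group F)) : GL D.Idx F) ∈ D.negUnipotent F := by
    have h1 : D.posUnipotent F ≤ (D.negUnipotent F).comap (MulAut.conj n).toMonoidHom := by
      rw [posUnipotent_le_iff hD]
      intro r hr t
      obtain ⟨η, -, h⟩ := L.conj r hr.1
      show n * xG hD r t * n⁻¹ ∈ D.negUnipotent F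
      rw [h]
      exact xG_mem_negUnipotent hD (L.pos r hr) _
    intro u hu
    exact h1 hu
  refine MeetIn.of_one (UU D F) hUp hUi ⟨nE, fun u hu h => ?_⟩
  have h1 : nE * u * nE⁻¹ = 1 :=
    Subtype.ext (one_of_mem_borel_of_mem_neg (Subgroup.mem_sup_left h) (hnV u hu) hD)
  have h2 : nE * u * nE⁻¹ = nE * 1 * nE⁻¹ := by rw [h1]; group
  exact mul_left_cancel (mul_right_cancel h2)

end chev

/-- **`G₂, F₄, E₆, E₇, E₈` in characteristic `p`.** -/
theorem meetIn_exc (D : ChevalleyDatum) (hD : D ∈ [chevG2, chevF4, chevE6, chevE7, chevE8])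
    {F : Type} [Field F] [Fintype F] {p : ℕ} [Fact p.Prime] [CharP F p] : MeetIn p ↥(D.group F) := by
  have hmem : D ∈ [chevG2, chevB2, chevD4, chevF4, chevE6, chevE7, chevE8] := by
    simp only [List.mem_cons, List.not_mem_nil, or_false] at hD ⊢
    tauto
  exact meetIn_chev hmem

/-! ### Root group data -/

section rgd

open CoxeterSystem Cfsg.Agent.ChevalleyStructure.CoxeterGeom Cfsg.Agent.Tits.Roots Cfsg.Agent.Tits.Core
  Cfsg.Agent.Tits.Exchange Cfsg.Agent.Nodes.Reps Cfsg.Agent.Nodes.BNOf Cfsg.Agent.Nodes.StabComb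
  Cfsg.Agent.Nodes.Bruhat Cfsg.Agent.Nodes.OppDec
  Cfsg.Agent.KFacts.RgdAut Cfsg.Agent.KFacts.RgdDiag Cfsg.Agent.KFacts.RgdAutFacts

variable {I W Y : Type*} [Fintype I] [DecidableEq I] [Group W] [Group Y] {M : CoxeterMatrix I}
  {cs : CoxeterSystem M W} {A : I → I → ℤ} {h : IsCartan M A} {p : ℕ} {T : Subgroup Y} {n : I → Y}
  {X : (I → ℤ) → Subgroup Y}

/-- **Root group data in characteristic `p`.** -/
theorem meetIn_rgd (R : RGD cs h p T n X) [Finite W] [Finite Y] [Fact p.Prime]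
    (hG : GG cs h T X = ⊤) : MeetIn p Y := by
  obtain ⟨S, hS⟩ := exists_sylow R hG
  have hUp : IsPGroup p ↥(RGD.Sup X (RGD.Pos cs h)) := R.isPGroup_Upos
  have hUi : ¬ p ∣ (RGD.Sup X (RGD.Pos cs h)).index := by
    rw [← hS]
    exact S.not_dvd_index
  obtain ⟨k, hk, -⟩ := Cfsg.Agent.H185.MeetRgd.exists_rp_fix R (Γ := Unit) (fun _ => 1) (fun _ _ => rfl) (w0 cs)
  have hkU : ∀ u ∈ RGD.Sup X (RGD.Pos cs h), k * u * k⁻¹ ∈ UN cs h X := by
    intro u hu
    rw [← cj_U R hk]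
    exact conj_mem_cj.2 hu
  have hUB : RGD.Sup X (RGD.Pos cs h) ≤ RGD.B cs h T X := RGD.U_le_B
  refine MeetIn.of_one _ hUp hUi ⟨k, fun u hu hB => ?_⟩
  have h1 : k * u * k⁻¹ = 1 := eq_one_of_mem_UN_of_mem_B R (hkU u hu) (hUB hB)
  have h2 : k * u * k⁻¹ = k * 1 * k⁻¹ := by rw [h1]; group
  exact mul_left_cancel (mul_right_cancel h2)

end rgd

section tw

open CoxeterSystem Cfsg.Agent.ChevalleyStructure.CoxeterGeom Cfsg.Agent.Tits.Roots Cfsg.Agent.Tits.Core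
  Cfsg.Agent.Tits.Exchange Cfsg.Agent.Nodes.Reps Cfsg.Agent.Nodes.BNOf Cfsg.Agent.Nodes.StabComb
  Cfsg.Agent.Nodes.Bruhat Cfsg.Agent.Nodes.OppDec Cfsg.Agent.Nodes.RGDTwGen Cfsg.Agent.Nodes.RGDChev
  Cfsg.Agent.Nodes.RGDFold Cfsg.Agent.Nodes.RGDFoldSL
open Cfsg.Agent.KFacts.RgdOpp Cfsg.Agent.KFacts.RgdAut Cfsg.Agent.KFacts.RgdDiag Cfsg.Agent.KFacts.RgdRigid
  Cfsg.Agent.KFacts.RgdField Cfsg.Agent.KFacts.RgdTau Cfsg.Agent.KFacts.RgdNodes
open Cfsg.Agent.ChevalleyStructure Cfsg.Agent.ChevalleyStructure.Elts Cfsg.Agent.ChevStructure.FieldMap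
open Cfsg.Agent.CpAut.RgdTwStd

section E6

open Cfsg.Agent.KFacts.TwESix.NodeCoord Cfsg.Agent.KFacts.TwESix.Out Cfsg.Agent.KFacts.TwESix.OutTwo
open Cfsg.Agent.Nodes.RGDTwE6 Cfsg.Agent.Nodes.RGDTwNode.E6
open Cfsg.Agent.ChevalleyStructure.TwE6Basic (hE6 exists_frob)

/-- **`²E₆(q)` in characteristic `p`.** -/
theorem meetIn_2E6 {K : Type} [Field K] [Fintype K] (q : ℕ) (hq : IsPrimePow q) (hK : Fintype.card K = q ^ 2)
    {p : ℕ} [Fact p.Prime] (hpq : p ∣ q) : MeetIn p ↥(twistedE6 K q) := by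
  have hpp : p.Prime := Fact.out
  obtain ⟨φ, hφ, hqq⟩ := exists_frob hq hK
  obtain ⟨p', f, hp', hf, hpf⟩ := (isPrimePow_nat_iff _).1 hq
  obtain rfl : p = p' := by
    rw [← hpf] at hpq
    exact (Nat.prime_dvd_prime_iff_eq hpp hp').1 (hpp.dvd_of_dvd_pow hpq)
  have hKp : Fintype.card K = p ^ (2 * f) := by rw [hK, ← hpf, ← pow_mul, mul_comm]
  have hchar : CharP K p := by
    obtain ⟨c, hc⟩ := CharP.exists K
    have : c = p := Cfsg.Agent.FixBN.TwESixSplit.char_eq (K := K) hpp hKp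
    exact this ▸ hc
  have hW : Finite CoxeterMatrix.F₄.Group :=
    Cfsg.Agent.Nodes.RGDFold.finite_W (hp := Cfsg.Agent.Nodes.RGDTwE6.hp) CoxeterMatrix.F₄.toCoxeterSystem
      Cfsg.Agent.Nodes.RGDTwE6.isCartan Cfsg.Agent.Nodes.RGDTwE6.foldData
  obtain ⟨cs, -⟩ : ∃ cs : CoxeterSystem CoxeterMatrix.F₄ CoxeterMatrix.F₄.Group, cs = cs :=
    ⟨CoxeterMatrix.F₄.toCoxeterSystem, rfl⟩
  have R := Cfsg.Agent.Nodes.RGDTwE6.rgd cs hφ hqq p
  have hG1 := G1_top cs hφ hqq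
  have hfin : Finite ↥(twistedE6 K q) := inferInstance
  exact meetIn_rgd R (GG_eq_top (T := T K q) hG1)

end E6

section D4

open Cfsg.Agent.KFacts.TwDFour.Out
open Cfsg.Agent.Nodes.RGDTwD4 Cfsg.Agent.Nodes.RGDTwNode.D4
open Cfsg.Agent.ChevalleyStructure (D4Fixed.exists_frob)

/-- **`³D₄(q)` in characteristic `p`.** -/
theorem meetIn_3D4 {K : Type} [Field K] [Fintype K] (q : ℕ) (hq : IsPrimePow q) (hK : Fintype.card K = q ^ 3)
    {p : ℕ} [Fact p.Prime] (hpq : p ∣ q) : MeetIn p ↥(twistedD4 K q) := by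
  have hpp : p.Prime := Fact.out
  obtain ⟨φ, hφ⟩ := Cfsg.Agent.ChevalleyStructure.D4Fixed.exists_frob hq hK
  obtain ⟨p', f, hp', hf, hpf⟩ := (isPrimePow_nat_iff _).1 hq
  obtain rfl : p = p' := by
    rw [← hpf] at hpq
    exact (Nat.prime_dvd_prime_iff_eq hpp hp').1 (hpp.dvd_of_dvd_pow hpq)
  have hKp : Fintype.card K = p ^ (3 * f) := by rw [hK, ← hpf, ← pow_mul, mul_comm]
  have hchar : CharP K p := by
    obtain ⟨c, hc⟩ := CharP.exists K
    have : c = p := Cfsg.Agent.FixBN.TwESixSplit.char_eq (K := K) hpp hKp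
    exact this ▸ hc
  obtain ⟨cs, -⟩ : ∃ cs : CoxeterSystem CoxeterMatrix.G₂ CoxeterMatrix.G₂.Group, cs = cs :=
    ⟨CoxeterMatrix.G₂.toCoxeterSystem, rfl⟩
  have hW : Finite CoxeterMatrix.G₂.Group := finiteW cs
  have R := Cfsg.Agent.Nodes.RGDTwD4.rgd cs hK hφ p
  have hG1 : RGD.Sup (X φ q) {x | IsRoot cs isCartan x} = ⊤ := G1_eq_top cs hK hφ
  have hfin : Finite ↥(twistedD4 K q) := inferInstance
  exact meetIn_rgd R (GG_eq_top (T := T K q) hG1)

end D4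

end tw

end Cfsg.Agent.H232.MeetTwoExc
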